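import Cfsg.Agent.Lib.Fischer.Recognition.Class
import Cfsg.Agent.Lib.Fischer.Recognition.Pre.Iso

/-!
A group with an involution whose centralizer is a perfect double cover of `PSU₆(2)`, not isolated in it, is Fi22.
-/

set_option autoImplicit false
set_option linter.unusedSectionVars false

namespace CfsgLib.Fischer.Recognition

/-- The class is one of 3-transpositions and the group, with it, is Fi22 with its transpositions. -/
theorem main {G : Type*} [Group G] [Finite G] {d : G} (hd : orderOf d = 2)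
    (hq : Cfsg.IsQuasisimple ↥(Subgroup.centralizer ({d} : Set G)))
    [((Subgroup.zpowers d).subgroupOf (Subgroup.centralizer ({d} : Set G))).Normal]
    {K : Type} [Field K] [Fintype K] (hK : Fintype.card K = 4)
    (e : ↥(Subgroup.centralizer ({d} : Set G)) ⧸ (Subgroup.zpowers d).subgroupOf (Subgroup.centralizer ({d} : Set G))
      ≃* Cfsg.PSU 6 K 2)
    (hnwc : ∃ g : G, g * d * g⁻¹ ∈ Subgroup.centralizer ({d} : Set G) ∧ g * d * g⁻¹ ≠ d) :
    Cfsg.IsThreeTranspositionClass (conjugatesOf d) ∧ Cfsg.IsPrimitiveUnderConj (conjugatesOf d) ∧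
      CfsgLib.Pre22.PreM22 G (conjugatesOf d) ∧
      ∃ f : G ≃* Cfsg.Spor.Fi22, f '' conjugatesOf d =
        conjugatesOf (PresentedGroup.of Cfsg.Spor.Fi22.Gen.a : Cfsg.Spor.Fi22) := by
  set T := conjugatesOf d
  have hd1 : d ≠ 1 := fun h => by rw [h, orderOf_one] at hd; omega
  have hdd : d * d = 1 := by rw [← pow_two, ← hd]; exact pow_orderOf_eq_one d
  have hsq : ∀ t ∈ T, t * t = 1 := fun t ht => sq_of_conj hdd ht
  have hcl : ∀ g : G, ∀ t ∈ T, g * t * g⁻¹ ∈ T := fun g t ht => (show IsConj d t from ht).trans (isConj_iff.2 ⟨g, rfl⟩)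
  have hL := exists_loc (d := d) hd hq hK e hnwc
  have hone : (1 : G) ∉ T := fun h => hd1 (isConj_one_left.1 h)
  have hdT : d ∈ T := IsConj.refl d
  have htr : ∀ x ∈ T, ∀ y ∈ T, ∃ g : G, g * x * g⁻¹ = y := fun x hx y hy =>
    isConj_iff.1 ((show IsConj d x from hx).symm.trans hy)
  have hne : T.Nonempty := ⟨d, hdT⟩
  have hset := isSet hsq hcl hL hone htr
  have hclo := closure_eq_top hsq hcl hL hone htr hne
  have hprim := primitive hsq hcl hL hone htr hne
  have hpre := preType hsq hcl hL hone htr hne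
  have hD : Cfsg.IsThreeTranspositionGroup T := ⟨hset, hcl, hclo⟩
  exact ⟨⟨hset, ⟨d, hdT, rfl⟩, hclo⟩, hprim, hpre, CfsgLib.Pre22.exists_equiv hD hprim hpre⟩

end CfsgLib.Fischer.Recognition
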